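-- Team project PHYP (S5974, helper63), regime [T2E] (r = 2 = p, q even), sub-coordinator helper12.
-- Interface file: definitions, the sub-package statements and the two assemblies.
import Mathlib
import Cfsg.Prelude.Def_GeometricClasses
import Cfsg.Prelude.Def_Classical
import Cfsg.Agent.Lib.Helper23.OHyp.Defs
import Cfsg.Agent.Lib.Helper12.OHyp.EBlkOdd

set_option autoImplicit false
open scoped MatrixGroups
open Matrix

namespace Cfsg.Agent.Lib.Helper12.PHyp

open Cfsg.Agent.Lib.Helper23.OHyp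

universe u

section defs

variable {F : Type u} [Field F] {ι : Type} [Fintype ι] [DecidableEq ι]

/-- `x` is of a-type on `V`: `B(v, x v) = 0` for all `v ∈ V`. -/
def AType (Q : (ι → F) → F) (x : Matrix ι ι F) (V : Submodule F (ι → F)) : Prop :=
  ∀ v ∈ V, QuadraticMap.polar Q v (x *ᵥ v) = 0

/-- There is an `x`-invariant nondegenerate plus-type subspace of dimension `m` inside `V`. -/
def HypIn (Q : (ι → F) → F) (x : Matrix ι ι F) (V : Submodule F (ι → F)) (m : ℕ) : Prop :=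
  ∃ W : Submodule F (ι → F), W ≤ V ∧ Inv x W ∧ Nd Q W ∧ Plus Q W ∧ Module.finrank F W = m

/-- Standing hypotheses: characteristic 2, `Q` a nondegenerate quadratic form, `x` an isometry
with `x * x = 1`. -/
structure Std2 (Q : (ι → F) → F) (x : Matrix ι ι F) : Prop where
  nondeg : Cfsg.Geo.IsNondegenerateQuadraticForm Q
  two : (2 : F) = 0
  sq : x * x = 1
  isom : ∀ v, Q (x *ᵥ v) = Q v

end defs

/-- [RP] an invariant hyperbolic plane when `x` is not of a-type. -/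
def PkgRP : Prop :=
  ∀ (F : Type u) [Field F] [Fintype F] (ι : Type) [Fintype ι] [DecidableEq ι]
    (Q : (ι → F) → F) (x : Matrix ι ι F), Std2 Q x →
    ∀ V : Submodule F (ι → F), Inv x V → Nd Q V → 6 ≤ Module.finrank F V → ¬ AType Q x V →
      HypIn Q x V 2

/-- [AB] an invariant plus-type 4-space when `x` is of a-type and not the identity on `V`. -/
def PkgAB : Prop :=
  ∀ (F : Type u) [Field F] [Fintype F] (ι : Type) [Fintype ι] [DecidableEq ι]
    (Q : (ι → F) → F) (x : Matrix ι ι F), Std2 Q x →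
    ∀ V : Submodule F (ι → F), Inv x V → Nd Q V → AType Q x V → ¬ V ≤ fixSp x →
      HypIn Q x V 4

/-- [GEOM2] plus-type subspaces of every smaller even dimension (characteristic 2). -/
def PkgGeom2 : Prop :=
  ∀ (F : Type u) [Field F] [Fintype F] (ι : Type) [Fintype ι] [DecidableEq ι]
    (Q : (ι → F) → F), Cfsg.Geo.IsNondegenerateQuadraticForm Q → (2 : F) = 0 →
    ∀ C : Submodule F (ι → F), Nd Q C → ∀ e : ℕ, Even e → e + 2 ≤ Module.finrank F C →
      ∃ W₀ : Submodule F (ι → F), W₀ ≤ C ∧ Nd Q W₀ ∧ Plus Q W₀ ∧ Module.finrank F W₀ = e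

/-- [SUMPLUS] orthogonal sums of nondegenerate plus-type subspaces. -/
def PkgSumPlus : Prop :=
  ∀ (F : Type u) [Field F] (ι : Type) [Fintype ι] [DecidableEq ι]
    (Q : (ι → F) → F), Cfsg.Geo.IsNondegenerateQuadraticForm Q →
    ∀ W₁ W₂ : Submodule F (ι → F), Nd Q W₁ → Nd Q W₂ → Perp Q W₁ W₂ → Plus Q W₁ → Plus Q W₂ →
      Nd Q (W₁ ⊔ W₂) ∧ Plus Q (W₁ ⊔ W₂) ∧
      Module.finrank F ↥(W₁ ⊔ W₂) = Module.finrank F W₁ + Module.finrank F W₂

/-- [NDEVEN] nondegenerate subspaces have even dimension in characteristic 2. -/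
def PkgNdEven : Prop :=
  ∀ (F : Type u) [Field F] (ι : Type) [Fintype ι] [DecidableEq ι]
    (Q : (ι → F) → F), Cfsg.Geo.IsNondegenerateQuadraticForm Q → (2 : F) = 0 →
    ∀ W : Submodule F (ι → F), Nd Q W → Even (Module.finrank F W)

/-- [ADEC] decomposition for a-type: blocks and a pointwise fixed nondegenerate complement. -/
def PkgADec : Prop :=
  ∀ (F : Type u) [Field F] [Fintype F] (ι : Type) [Fintype ι] [DecidableEq ι]
    (Q : (ι → F) → F) (x : Matrix ι ι F), Std2 Q x →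
    ∀ V : Submodule F (ι → F), Inv x V → Nd Q V → AType Q x V →
      ∃ (s2 : ℕ) (V' : Submodule F (ι → F)), V' ≤ V ∧ V' ≤ fixSp x ∧ Nd Q V' ∧
        Module.finrank F V = 4 * s2 + Module.finrank F V' ∧
        ∀ t : ℕ, t ≤ s2 → ∃ WA : Submodule F (ι → F), WA ≤ V ∧ Inv x WA ∧ Nd Q WA ∧ Plus Q WA ∧
          Module.finrank F WA = 4 * t ∧ Perp Q WA V'

/-- [ASOLVE] invariant hyperbolic `m`-spaces for a-type. -/
def PkgASolve : Prop :=
  ∀ (F : Type u) [Field F] [Fintype F] (ι : Type) [Fintype ι] [DecidableEq ι]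
    (Q : (ι → F) → F) (x : Matrix ι ι F), Std2 Q x →
    ∀ V : Submodule F (ι → F), Inv x V → Nd Q V → AType Q x V →
    ∀ m : ℕ, 2 * m ≤ Module.finrank F V →
      (m % 4 = 0 → HypIn Q x V m) ∧
      (m % 4 = 2 → HypIn Q x V m ∨ Module.finrank F V % 4 = 0 ∨
        ∃ V' R : Submodule F (ι → F), Nd Q V' ∧ Module.finrank F V' = 2 ∧ ¬ Plus Q V' ∧
          Cfsg.Geo.IsTotallySingularQuad Q R ∧ Perp Q R V' ∧
          2 * Module.finrank F R + 2 = Module.finrank F V)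

/-- [TSMAX] a nondegenerate plane orthogonal to a totally singular subspace of dimension
`d - 1` is of plus type, when the whole space (dimension `2 d`) is. -/
def PkgTSMax : Prop :=
  ∀ (F : Type u) [Field F] (ι : Type) [Fintype ι] [DecidableEq ι]
    (Q : (ι → F) → F), Cfsg.Geo.IsNondegenerateQuadraticForm Q →
    ∀ U₀ : Submodule F (ι → F), Cfsg.Geo.IsTotallySingularQuad Q U₀ →
      2 * Module.finrank F U₀ = Fintype.card ι →
    ∀ R V' : Submodule F (ι → F), Cfsg.Geo.IsTotallySingularQuad Q R → Nd Q V' →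
      Module.finrank F V' = 2 → Perp Q R V' → 2 * Module.finrank F R + 2 = Fintype.card ι →
      Plus Q V'

/-- [PEEL] the case "not of a-type". -/
def PkgPeel : Prop :=
  ∀ (F : Type u) [Field F] [Fintype F] (ι : Type) [Fintype ι] [DecidableEq ι]
    (Q : (ι → F) → F) (x : Matrix ι ι F), Std2 Q x →
    ∀ m : ℕ, Even m → ∀ V : Submodule F (ι → F), Inv x V → Nd Q V → ¬ AType Q x V →
      2 * m + 2 ≤ Module.finrank F V → HypIn Q x V m

/-- [PLUSTOP] the whole space of `quadFormPlus` is nondegenerate of plus type. -/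
def PkgPlusTop : Prop :=
  ∀ (F : Type u) [Field F] (d : ℕ),
    Nd (Cfsg.quadFormPlus d F) ⊤ ∧ Plus (Cfsg.quadFormPlus d F) ⊤

/-- [NECCRIT] a-type with totally singular fixed space: invariant nondegenerate subspaces have
dimension divisible by 4. -/
def PkgNecCrit : Prop :=
  ∀ (F : Type u) [Field F] [Fintype F] (ι : Type) [Fintype ι] [DecidableEq ι]
    (Q : (ι → F) → F) (x : Matrix ι ι F), Std2 Q x → AType Q x ⊤ →
    (∀ v, x *ᵥ v = v → Q v = 0) →
    ∀ W : Submodule F (ι → F), Inv x W → Nd Q W → Module.finrank F W % 4 = 0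

/-- [NECELT] the element `fromBlocks 1 S 0 1` in Ω for `d` even. -/
def PkgNecElt : Prop :=
  ∀ (F : Type u) [Field F] [Fintype F], (2 : F) = 0 → ∀ d : ℕ, 4 ≤ d → Even d →
    ∃ x : GL (Fin d ⊕ Fin d) F, x ∈ Cfsg.Geo.omegaGL (Cfsg.quadFormPlus d F) ∧
      (x : Matrix (Fin d ⊕ Fin d) (Fin d ⊕ Fin d) F) *
        (x : Matrix (Fin d ⊕ Fin d) (Fin d ⊕ Fin d) F) = 1 ∧ x ≠ 1 ∧
      AType (Cfsg.quadFormPlus d F) (x : Matrix (Fin d ⊕ Fin d) (Fin d ⊕ Fin d) F) ⊤ ∧
      ∀ v, (x : Matrix (Fin d ⊕ Fin d) (Fin d ⊕ Fin d) F) *ᵥ v = v →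
        Cfsg.quadFormPlus d F v = 0

/-- Top level (SUF): every involution of `O⁺_{2d}(q)`, `q` even, fixes a hyperbolic
`m`-space when `d` is odd or `4 ∣ m`. -/
def PkgT2ESuf : Prop :=
  ∀ (F : Type u) [Field F] [Fintype F], (2 : F) = 0 → ∀ d m : ℕ, 4 ≤ d → Even m → m < d →
    (Odd d ∨ m % 4 = 0) →
    ∀ x : Matrix (Fin d ⊕ Fin d) (Fin d ⊕ Fin d) F, x * x = 1 →
      (∀ v, Cfsg.quadFormPlus d F (x *ᵥ v) = Cfsg.quadFormPlus d F v) →
      ∃ W : Submodule F (Fin d ⊕ Fin d → F), Module.finrank F W = m ∧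
        Nd (Cfsg.quadFormPlus d F) W ∧ Plus (Cfsg.quadFormPlus d F) W ∧ Inv x W

/-- Top level (NEC): for `d` even an involution in Ω all of whose invariant nondegenerate
subspaces have dimension divisible by 4. -/
def PkgT2ENec : Prop :=
  ∀ (F : Type u) [Field F] [Fintype F], (2 : F) = 0 → ∀ d : ℕ, 4 ≤ d → Even d →
    ∃ x : GL (Fin d ⊕ Fin d) F, x ∈ Cfsg.Geo.omegaGL (Cfsg.quadFormPlus d F) ∧
      x ^ 2 = 1 ∧ x ≠ 1 ∧
      ∀ W : Submodule F (Fin d ⊕ Fin d → F),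
        Inv (x : Matrix (Fin d ⊕ Fin d) (Fin d ⊕ Fin d) F) W →
        Nd (Cfsg.quadFormPlus d F) W → Module.finrank F W % 4 = 0

/-- Assembly of (SUF). -/
theorem pkgT2ESuf_of (hPeel : PkgPeel.{u}) (hAS : PkgASolve.{u}) (hTS : PkgTSMax.{u})
    (hPT : PkgPlusTop.{u}) : PkgT2ESuf.{u} := by
  intro F _ _ h2 d m hd hme hmd hdm x hx2 hxi
  have hQ := Cfsg.Agent.Lib.Helper12.OHyp.nondeg_quadFormPlus (F := F) d
  have hStd : Std2 (Cfsg.quadFormPlus d F) x := ⟨hQ, h2, hx2, hxi⟩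
  obtain ⟨hNdTop, hPlusTop⟩ := hPT F d
  have hInvTop : Inv x (⊤ : Submodule F (Fin d ⊕ Fin d → F)) := le_top
  have hcard : Fintype.card (Fin d ⊕ Fin d) = 2 * d := by
    rw [Fintype.card_sum, Fintype.card_fin]; ring
  have hfr : Module.finrank F (⊤ : Submodule F (Fin d ⊕ Fin d → F)) = 2 * d := by
    rw [finrank_top, Module.finrank_fintype_fun_eq_card, hcard]
  have key : HypIn (Cfsg.quadFormPlus d F) x ⊤ m := by
    by_cases hA : AType (Cfsg.quadFormPlus d F) x ⊤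
    · obtain ⟨h0, h2'⟩ := hAS F _ _ x hStd ⊤ hInvTop hNdTop hA m (by rw [hfr]; omega)
      have hm4 : m % 4 = 0 ∨ m % 4 = 2 := by
        obtain ⟨k, hk⟩ := hme
        omega
      rcases hm4 with hm0 | hm2
      · exact h0 hm0
      · rcases h2' hm2 with h | h | ⟨V', R, hNdV', hfV', hnP, hTSR, hPerp, hfin⟩
        · exact h
        · exfalso
          rw [hfr] at h
          rcases hdm with ⟨k, hk⟩ | h'
          · omega
          · omega
        · exfalso
          apply hnP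
          obtain ⟨U₀, -, hU₀ts, hU₀f⟩ := hPlusTop
          exact hTS F _ _ hQ U₀ hU₀ts (by rw [hU₀f, hfr, hcard]) R V' hTSR hNdV' hfV' hPerp
            (by rw [hfin, hfr, hcard])
    · exact hPeel F _ _ x hStd m hme ⊤ hInvTop hNdTop hA (by rw [hfr]; omega)
  obtain ⟨W, -, hI, hN, hP, hf⟩ := key
  exact ⟨W, hf, hN, hP, hI⟩

/-- Assembly of (NEC). -/
theorem pkgT2ENec_of (hElt : PkgNecElt.{u}) (hCrit : PkgNecCrit.{u}) : PkgT2ENec.{u} := by
  intro F _ _ h2 d hd hde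
  obtain ⟨x, hxΩ, hx2, hx1, hA, hfix⟩ := hElt F h2 d hd hde
  have hQ := Cfsg.Agent.Lib.Helper12.OHyp.nondeg_quadFormPlus (F := F) d
  have hiso : ∀ v, Cfsg.quadFormPlus d F
      ((x : Matrix (Fin d ⊕ Fin d) (Fin d ⊕ Fin d) F) *ᵥ v) = Cfsg.quadFormPlus d F v := by
    obtain ⟨g, -, rfl⟩ := hxΩ
    intro v
    exact g.2 v v
  have hStd : Std2 (Cfsg.quadFormPlus d F)
      (x : Matrix (Fin d ⊕ Fin d) (Fin d ⊕ Fin d) F) := ⟨hQ, h2, hx2, hiso⟩
  refine ⟨x, hxΩ, ?_, hx1, fun W hI hN => hCrit F _ _ _ hStd hA hfix W hI hN⟩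
  apply Units.ext
  rw [Units.val_pow_eq_pow_val, pow_two, hx2, Units.val_one]

end Cfsg.Agent.Lib.Helper12.PHyp
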