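-- Team project PHYP (S5974), regime [T2E]: basic lemmas, [SUMPLUS], hyperbolic planes.
import Mathlib
import Cfsg.Agent.Lib.Helper94.Refl
import Cfsg.Agent.Lib.Helper12.PHyp.T2EDefs

set_option autoImplicit false
set_option linter.unusedSectionVars false
open scoped MatrixGroups
open Matrix

namespace Cfsg.Agent.Lib.Helper12.PHyp

open Cfsg.Agent.Lib.Helper23.OHyp
open Cfsg.Agent.Lib.Helper94

universe u

section basic

variable {F : Type u} [Field F] {ι : Type} [Fintype ι] [DecidableEq ι]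
variable {Q : (ι → F) → F} {x : Matrix ι ι F}

lemma inv_mulVec_mem {W : Submodule F (ι → F)} (h : Inv x W) {v : ι → F} (hv : v ∈ W) :
    x *ᵥ v ∈ W := by
  have h1 : Matrix.toLin' x v ∈ W := h (Submodule.mem_map.2 ⟨v, hv, rfl⟩)
  rwa [Matrix.toLin'_apply] at h1

lemma inv_of_mulVec_mem {W : Submodule F (ι → F)} (h : ∀ v ∈ W, x *ᵥ v ∈ W) : Inv x W := by
  rintro _ ⟨v, hv, rfl⟩
  rw [Matrix.toLin'_apply]
  exact h v hv

lemma inv_sup {W₁ W₂ : Submodule F (ι → F)} (h₁ : Inv x W₁) (h₂ : Inv x W₂) :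
    Inv x (W₁ ⊔ W₂) := by
  apply inv_of_mulVec_mem
  intro v hv
  obtain ⟨a, ha, b, hb, rfl⟩ := Submodule.mem_sup.1 hv
  rw [Matrix.mulVec_add]
  exact Submodule.add_mem _ (Submodule.mem_sup_left (inv_mulVec_mem h₁ ha))
    (Submodule.mem_sup_right (inv_mulVec_mem h₂ hb))

lemma nd_of_right {W : Submodule F (ι → F)}
    (h : ∀ w ∈ W, w ≠ 0 → ∃ y ∈ W, QuadraticMap.polar Q w y ≠ 0) : Nd Q W := by
  intro w hw hw0
  obtain ⟨y, hy, hy0⟩ := h w hw hw0
  exact ⟨⟨y, hy, by rwa [QuadraticMap.polar_comm]⟩, ⟨y, hy, hy0⟩⟩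

lemma nd_right {W : Submodule F (ι → F)} (h : Nd Q W) {w : ι → F} (hw : w ∈ W) (hw0 : w ≠ 0) :
    ∃ y ∈ W, QuadraticMap.polar Q w y ≠ 0 := (h w hw hw0).2

lemma fixSp_mem {v : ι → F} : v ∈ fixSp x ↔ x *ᵥ v = v := by
  unfold fixSp
  rw [LinearMap.mem_ker, LinearMap.sub_apply, Matrix.toLin'_apply, Module.End.one_apply,
    sub_eq_zero]

/-- Sums of orthogonal nondegenerate plus-type subspaces. -/
theorem sumPlus (hQ : Cfsg.Geo.IsNondegenerateQuadraticForm Q)
    (W₁ W₂ : Submodule F (ι → F)) (h₁ : Nd Q W₁) (h₂ : Nd Q W₂) (hP : Perp Q W₁ W₂)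
    (hp₁ : Plus Q W₁) (hp₂ : Plus Q W₂) :
    Nd Q (W₁ ⊔ W₂) ∧ Plus Q (W₁ ⊔ W₂) ∧
      Module.finrank F ↥(W₁ ⊔ W₂) = Module.finrank F W₁ + Module.finrank F W₂ := by
  have hdisj : W₁ ⊓ W₂ = ⊥ := by
    rw [eq_bot_iff]
    intro w hw
    rw [Submodule.mem_bot]
    by_contra hw0
    obtain ⟨y, hy, hy0⟩ := nd_right h₁ hw.1 hw0
    apply hy0
    rw [QuadraticMap.polar_comm]
    exact hP y hy w hw.2
  have hfin : Module.finrank F ↥(W₁ ⊔ W₂) = Module.finrank F W₁ + Module.finrank F W₂ := by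
    have h := Submodule.finrank_sup_add_finrank_inf_eq W₁ W₂
    rw [hdisj, finrank_bot] at h
    omega
  refine ⟨?_, ?_, hfin⟩
  · apply nd_of_right
    intro w hw hw0
    obtain ⟨a, ha, b, hb, rfl⟩ := Submodule.mem_sup.1 hw
    by_cases ha0 : a = 0
    · have hb0 : b ≠ 0 := by
        rintro rfl
        apply hw0
        rw [ha0, add_zero]
      obtain ⟨y, hy, hy0⟩ := nd_right h₂ hb hb0
      refine ⟨y, Submodule.mem_sup_right hy, ?_⟩
      have e : QuadraticMap.polar Q (a + b) y = QuadraticMap.polar Q b y := by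
        have := pol_add_left hQ a b y
        have h0 : QuadraticMap.polar Q a y = 0 := hP a ha y hy
        simp only [pol] at this
        rw [this, h0, zero_add]
      rwa [e]
    · obtain ⟨y, hy, hy0⟩ := nd_right h₁ ha ha0
      refine ⟨y, Submodule.mem_sup_left hy, ?_⟩
      have e : QuadraticMap.polar Q (a + b) y = QuadraticMap.polar Q a y := by
        have := pol_add_left hQ a b y
        have h0 : QuadraticMap.polar Q b y = 0 := by
          rw [QuadraticMap.polar_comm]
          exact hP y hy b hb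
        simp only [pol] at this
        rw [this, h0, add_zero]
      rwa [e]
  · obtain ⟨U₁, hU₁, hts₁, hf₁⟩ := hp₁
    obtain ⟨U₂, hU₂, hts₂, hf₂⟩ := hp₂
    refine ⟨U₁ ⊔ U₂, sup_le_sup hU₁ hU₂, ?_, ?_⟩
    · intro w hw
      obtain ⟨a, ha, b, hb, rfl⟩ := Submodule.mem_sup.1 hw
      rw [Q_add (Q := Q), hts₁ a ha, hts₂ b hb]
      have h0 : QuadraticMap.polar Q a b = 0 := hP a (hU₁ ha) b (hU₂ hb)
      simp only [pol]
      rw [h0]
      ring
    · have hdisj' : U₁ ⊓ U₂ = ⊥ := by
        rw [eq_bot_iff, ← hdisj]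
        exact inf_le_inf hU₁ hU₂
      have h := Submodule.finrank_sup_add_finrank_inf_eq U₁ U₂
      rw [hdisj', finrank_bot] at h
      omega

theorem pkgSumPlus : PkgSumPlus.{u} := by
  intro F _ ι _ _ Q hQ W₁ W₂ h₁ h₂ hP hp₁ hp₂
  exact sumPlus hQ W₁ W₂ h₁ h₂ hP hp₁ hp₂

/-- A hyperbolic pair spans a nondegenerate plane. -/
theorem plane_nd (hQ : Cfsg.Geo.IsNondegenerateQuadraticForm Q) (a b : ι → F)
    (haa : QuadraticMap.polar Q a a = 0) (hbb : QuadraticMap.polar Q b b = 0)
    (hab : QuadraticMap.polar Q a b ≠ 0) :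
    Nd Q (Submodule.span F {a, b}) ∧ Module.finrank F (Submodule.span F {a, b}) = 2 := by
  have hba : QuadraticMap.polar Q b a ≠ 0 := by rwa [QuadraticMap.polar_comm]
  have e1 : ∀ s t : F, QuadraticMap.polar Q (s • a + t • b) b = s * QuadraticMap.polar Q a b := by
    intro s t
    have h1 := pol_add_left hQ (s • a) (t • b) b
    have h2 := pol_smul_left hQ s a b
    have h3 := pol_smul_left hQ t b b
    simp only [pol] at h1 h2 h3
    rw [h1, h2, h3, hbb]
    ring
  have e2 : ∀ s t : F, QuadraticMap.polar Q (s • a + t • b) a = t * QuadraticMap.polar Q b a := by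
    intro s t
    have h1 := pol_add_left hQ (s • a) (t • b) a
    have h2 := pol_smul_left hQ s a a
    have h3 := pol_smul_left hQ t b a
    simp only [pol] at h1 h2 h3
    rw [h1, h2, h3, haa]
    ring
  constructor
  · apply nd_of_right
    intro w hw hw0
    obtain ⟨s, t, rfl⟩ := Submodule.mem_span_pair.1 hw
    by_cases hs : s = 0
    · have ht : t ≠ 0 := by
        rintro rfl
        apply hw0
        rw [hs, zero_smul, zero_smul, add_zero]
      refine ⟨a, Submodule.subset_span (by simp), ?_⟩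
      rw [e2]
      exact mul_ne_zero ht hba
    · refine ⟨b, Submodule.subset_span (by simp), ?_⟩
      rw [e1]
      exact mul_ne_zero hs hab
  · have hli : LinearIndependent F ![a, b] := by
      rw [LinearIndependent.pair_iff]
      intro s t hst
      have h1 := e1 s t
      have h2 := e2 s t
      rw [hst] at h1 h2
      have z1 : QuadraticMap.polar Q (0 : ι → F) b = 0 := pol_zero_left hQ b
      have z2 : QuadraticMap.polar Q (0 : ι → F) a = 0 := pol_zero_left hQ a
      rw [z1] at h1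
      rw [z2] at h2
      constructor
      · rcases mul_eq_zero.1 h1.symm with h | h
        · exact h
        · exact absurd h hab
      · rcases mul_eq_zero.1 h2.symm with h | h
        · exact h
        · exact absurd h hba
    have h := finrank_span_eq_card hli
    rw [Matrix.range_cons_cons_empty] at h
    rw [h]
    simp

/-- A hyperbolic pair with one singular vector spans a plus-type plane. -/
theorem plane_plus (hQ : Cfsg.Geo.IsNondegenerateQuadraticForm Q) (a b : ι → F)
    (haa : QuadraticMap.polar Q a a = 0) (hbb : QuadraticMap.polar Q b b = 0)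
    (hab : QuadraticMap.polar Q a b ≠ 0) (hb : Q b = 0) :
    Plus Q (Submodule.span F {a, b}) := by
  have hb0 : b ≠ 0 := by
    rintro rfl
    apply hab
    exact pol_zero_right hQ a
  refine ⟨Submodule.span F {b}, ?_, ?_, ?_⟩
  · apply Submodule.span_mono
    simp
  · intro w hw
    obtain ⟨t, rfl⟩ := Submodule.mem_span_singleton.1 hw
    rw [Q_smul hQ, hb, mul_zero]
  · rw [(plane_nd hQ a b haa hbb hab).2, finrank_span_singleton hb0]

end basic

section std2

variable {F : Type u} [Field F] {ι : Type} [Fintype ι] [DecidableEq ι]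
variable {Q : (ι → F) → F} {x : Matrix ι ι F}

lemma Std2.add_self (h : Std2 Q x) (a : F) : a + a = 0 := by
  rw [← two_mul, h.two, zero_mul]

lemma Std2.vadd_self (h : Std2 Q x) (v : ι → F) : v + v = 0 := by
  rw [← two_smul F v, h.two, zero_smul]

lemma Std2.pself (h : Std2 Q x) (v : ι → F) : QuadraticMap.polar Q v v = 0 := by
  have := pol_self h.nondeg v
  rw [h.two, zero_mul] at this
  exact this

lemma Std2.px (h : Std2 Q x) (u v : ι → F) :
    QuadraticMap.polar Q (x *ᵥ u) (x *ᵥ v) = QuadraticMap.polar Q u v := by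
  unfold QuadraticMap.polar
  rw [← Matrix.mulVec_add, h.isom, h.isom, h.isom]

lemma Std2.xx (h : Std2 Q x) (v : ι → F) : x *ᵥ (x *ᵥ v) = v := by
  rw [Matrix.mulVec_mulVec, h.sq, Matrix.one_mulVec]

lemma Std2.px_right (h : Std2 Q x) (u v : ι → F) :
    QuadraticMap.polar Q u (x *ᵥ v) = QuadraticMap.polar Q (x *ᵥ u) v := by
  have := h.px (x *ᵥ u) v
  rw [h.xx] at this
  exact this

lemma Std2.qn (h : Std2 Q x) (v : ι → F) :
    Q (x *ᵥ v + v) = QuadraticMap.polar Q v (x *ᵥ v) := by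
  rw [Q_add (Q := Q), h.isom, h.add_self, zero_add]
  exact pol_comm _ _

lemma Std2.xn (h : Std2 Q x) (v : ι → F) : x *ᵥ (x *ᵥ v + v) = x *ᵥ v + v := by
  rw [Matrix.mulVec_add, h.xx, add_comm]

lemma Std2.det (h : Std2 Q x) : IsUnit x.det := by
  have := congrArg Matrix.det h.sq
  rw [Matrix.det_mul, Matrix.det_one] at this
  exact IsUnit.of_mul_eq_one _ this

end std2

end Cfsg.Agent.Lib.Helper12.PHyp
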