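-- Team project PHYP (S5974), regime [T2E]: packages [AB] and [NECCRIT].
import Mathlib
import Cfsg.Agent.Lib.Helper94.Refl
import Cfsg.Agent.Lib.Helper87.OHyp.Perp
import Cfsg.Agent.Lib.Helper12.PHyp.T2EBasic

set_option autoImplicit false
set_option linter.unusedSectionVars false
open scoped MatrixGroups
open Matrix

namespace Cfsg.Agent.Lib.Helper12.PHyp

open Cfsg.Agent.Lib.Helper23.OHyp
open Cfsg.Agent.Lib.Helper94

universe u

section ab

variable {F : Type u} [Field F] {ι : Type} [Fintype ι] [DecidableEq ι]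
variable {Q : (ι → F) → F} {x : Matrix ι ι F}

lemma padd_left (hQ : Cfsg.Geo.IsNondegenerateQuadraticForm Q) (a b c : ι → F) :
    QuadraticMap.polar Q (a + b) c = QuadraticMap.polar Q a c + QuadraticMap.polar Q b c :=
  hQ.polar_bilinear.add_left a b c

lemma psmul_left (hQ : Cfsg.Geo.IsNondegenerateQuadraticForm Q) (s : F) (a c : ι → F) :
    QuadraticMap.polar Q (s • a) c = s * QuadraticMap.polar Q a c :=
  hQ.polar_bilinear.smul_left s a c

lemma padd_right (hQ : Cfsg.Geo.IsNondegenerateQuadraticForm Q) (c a b : ι → F) :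
    QuadraticMap.polar Q c (a + b) = QuadraticMap.polar Q c a + QuadraticMap.polar Q c b :=
  hQ.polar_bilinear.add_right c a b

lemma psmul_right (hQ : Cfsg.Geo.IsNondegenerateQuadraticForm Q) (s : F) (c a : ι → F) :
    QuadraticMap.polar Q c (s • a) = s * QuadraticMap.polar Q c a :=
  hQ.polar_bilinear.smul_right s c a

lemma pzero_right (hQ : Cfsg.Geo.IsNondegenerateQuadraticForm Q) (c : ι → F) :
    QuadraticMap.polar Q c 0 = 0 := pol_zero_right hQ c

lemma pzero_left (hQ : Cfsg.Geo.IsNondegenerateQuadraticForm Q) (c : ι → F) :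
    QuadraticMap.polar Q 0 c = 0 := pol_zero_left hQ c

theorem perp_span_pair (hQ : Cfsg.Geo.IsNondegenerateQuadraticForm Q) (a b c d : ι → F)
    (h1 : QuadraticMap.polar Q a c = 0) (h2 : QuadraticMap.polar Q a d = 0)
    (h3 : QuadraticMap.polar Q b c = 0) (h4 : QuadraticMap.polar Q b d = 0) :
    Perp Q (Submodule.span F {a, b}) (Submodule.span F {c, d}) := by
  intro u hu w hw
  obtain ⟨s, t, rfl⟩ := Submodule.mem_span_pair.1 hu
  obtain ⟨s', t', rfl⟩ := Submodule.mem_span_pair.1 hw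
  simp only [padd_left hQ, padd_right hQ, psmul_left hQ, psmul_right hQ, h1, h2, h3, h4]
  ring

lemma Std2.bn (hS : Std2 Q x) (a b : ι → F) :
    QuadraticMap.polar Q (x *ᵥ a + a) b = QuadraticMap.polar Q a (x *ᵥ b + b) := by
  rw [padd_left hS.nondeg, padd_right hS.nondeg, hS.px_right a b]

lemma Std2.bnn (hS : Std2 Q x) (a b : ι → F) :
    QuadraticMap.polar Q (x *ᵥ a + a) (x *ᵥ b + b) = 0 := by
  rw [hS.bn, hS.xn, hS.vadd_self]
  exact pzero_right hS.nondeg a

lemma Std2.x_eq (hS : Std2 Q x) (a : ι → F) : x *ᵥ a = a + (x *ᵥ a + a) := by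
  rw [add_comm (x *ᵥ a) a, ← add_assoc, hS.vadd_self, zero_add]

lemma Std2.n_ne (hS : Std2 Q x) {a : ι → F} (ha : x *ᵥ a ≠ a) : x *ᵥ a + a ≠ 0 := by
  intro h0
  apply ha
  have h1 : x *ᵥ a = -a := eq_neg_of_add_eq_zero_left h0
  rw [h1]
  exact neg_eq_of_add_eq_zero_left (hS.vadd_self a)

theorem pkgAB : PkgAB.{u} := by
  intro F _ _ ι _ _ Q x hS V hI hN hA hnf
  have hQ := hS.nondeg
  obtain ⟨v, hvV, hvf⟩ : ∃ v ∈ V, x *ᵥ v ≠ v := by
    by_contra hcon
    apply hnf
    intro v hv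
    rw [fixSp_mem]
    by_contra hv2
    exact hcon ⟨v, hv, hv2⟩
  have hvN : ∀ a ∈ V, QuadraticMap.polar Q a (x *ᵥ a + a) = 0 := by
    intro a ha
    rw [padd_right hQ, hA a ha, hS.pself, add_zero]
  have hQN : ∀ a ∈ V, Q (x *ᵥ a + a) = 0 := by
    intro a ha
    rw [hS.qn, hA a ha]
  have hn10 : x *ᵥ v + v ≠ 0 := hS.n_ne hvf
  have hn1V : x *ᵥ v + v ∈ V := V.add_mem (inv_mulVec_mem hI hvV) hvV
  obtain ⟨w0, hw0V, hw0⟩ := nd_right hN hn1V hn10
  obtain ⟨w, hw⟩ : ∃ w, w = (QuadraticMap.polar Q (x *ᵥ v + v) w0)⁻¹ • w0 := ⟨_, rfl⟩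
  have hwV : w ∈ V := by
    rw [hw]
    exact V.smul_mem _ hw0V
  have hn1w : QuadraticMap.polar Q (x *ᵥ v + v) w = 1 := by
    rw [hw, psmul_right hQ, inv_mul_cancel₀ hw0]
  have hn2V : x *ᵥ w + w ∈ V := V.add_mem (inv_mulVec_mem hI hwV) hwV
  obtain ⟨n1, hn1⟩ : ∃ n1, n1 = x *ᵥ v + v := ⟨_, rfl⟩
  obtain ⟨n2, hn2⟩ : ∃ n2, n2 = x *ᵥ w + w := ⟨_, rfl⟩
  obtain ⟨w', hw'⟩ : ∃ w', w' = w + QuadraticMap.polar Q v w • n2 := ⟨_, rfl⟩
  have p_v_n2 : QuadraticMap.polar Q v n2 = 1 := by rw [hn2, ← hS.bn, hn1w]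
  have p_v_n1 : QuadraticMap.polar Q v n1 = 0 := by
    rw [hn1]
    exact hvN v hvV
  have p_n2_n1 : QuadraticMap.polar Q n2 n1 = 0 := by
    rw [hn1, hn2]
    exact hS.bnn w v
  have p_n2_n2 : QuadraticMap.polar Q n2 n2 = 0 := hS.pself n2
  have p_w_n2 : QuadraticMap.polar Q w n2 = 0 := by
    rw [hn2]
    exact hvN w hwV
  have p_n2_w : QuadraticMap.polar Q n2 w = 0 := by
    rw [QuadraticMap.polar_comm]
    exact p_w_n2
  have p_w_n1 : QuadraticMap.polar Q w n1 = 1 := by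
    rw [QuadraticMap.polar_comm, hn1]
    exact hn1w
  have p_w'_n1 : QuadraticMap.polar Q w' n1 = 1 := by
    rw [hw', padd_left hQ, psmul_left hQ, p_n2_n1, p_w_n1, mul_zero, add_zero]
  have p_v_w' : QuadraticMap.polar Q v w' = 0 := by
    rw [hw', padd_right hQ, psmul_right hQ, p_v_n2, mul_one]
    exact hS.add_self _
  have p_n2_w' : QuadraticMap.polar Q n2 w' = 0 := by
    rw [hw', padd_right hQ, psmul_right hQ, p_n2_n2, p_n2_w, mul_zero, add_zero]
  have q_n1 : Q n1 = 0 := by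
    rw [hn1]
    exact hQN v hvV
  have q_n2 : Q n2 = 0 := by
    rw [hn2]
    exact hQN w hwV
  have ne1 : QuadraticMap.polar Q v n2 ≠ 0 := by
    rw [p_v_n2]
    exact one_ne_zero
  have ne2 : QuadraticMap.polar Q w' n1 ≠ 0 := by
    rw [p_w'_n1]
    exact one_ne_zero
  have hH1 := plane_nd hQ v n2 (hS.pself v) p_n2_n2 ne1
  have hH1p := plane_plus hQ v n2 (hS.pself v) p_n2_n2 ne1 q_n2
  have hH2 := plane_nd hQ w' n1 (hS.pself w') (hS.pself n1) ne2
  have hH2p := plane_plus hQ w' n1 (hS.pself w') (hS.pself n1) ne2 q_n1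
  have hPerp : Perp Q (Submodule.span F {v, n2}) (Submodule.span F {w', n1}) :=
    perp_span_pair hQ v n2 w' n1 p_v_w' p_v_n1 p_n2_w' p_n2_n1
  obtain ⟨hNdA, hPlA, hfA⟩ := sumPlus hQ _ _ hH1.1 hH2.1 hPerp hH1p hH2p
  have hn1V' : n1 ∈ V := by
    rw [hn1]
    exact hn1V
  have hn2V' : n2 ∈ V := by
    rw [hn2]
    exact hn2V
  have hw'V : w' ∈ V := by
    rw [hw']
    exact V.add_mem hwV (V.smul_mem _ hn2V')
  refine ⟨Submodule.span F {v, n2} ⊔ Submodule.span F {w', n1}, ?_, ?_, hNdA, hPlA,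
    by rw [hfA, hH1.2, hH2.2]⟩
  · apply sup_le
    · rw [Submodule.span_le]
      intro z hz
      simp only [Set.mem_insert_iff, Set.mem_singleton_iff] at hz
      rcases hz with h | h
      · rw [h]
        exact hvV
      · rw [h]
        exact hn2V'
    · rw [Submodule.span_le]
      intro z hz
      simp only [Set.mem_insert_iff, Set.mem_singleton_iff] at hz
      rcases hz with h | h
      · rw [h]
        exact hw'V
      · rw [h]
        exact hn1V'
  · rw [← Submodule.span_union]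
    show Submodule.map (Matrix.toLin' x) _ ≤ _
    rw [Submodule.map_span_le]
    intro z hz
    rw [Matrix.toLin'_apply]
    have xv : x *ᵥ v = v + n1 := by
      rw [hn1]
      exact hS.x_eq v
    have xn1 : x *ᵥ n1 = n1 := by
      rw [hn1]
      exact hS.xn v
    have xn2 : x *ᵥ n2 = n2 := by
      rw [hn2]
      exact hS.xn w
    have xw : x *ᵥ w = w + n2 := by
      rw [hn2]
      exact hS.x_eq w
    have xw' : x *ᵥ w' = w' + n2 := by
      rw [hw', Matrix.mulVec_add, Matrix.mulVec_smul, xn2, xw]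
      abel
    have mv : v ∈ Submodule.span F ({v, n2} ∪ {w', n1} : Set (ι → F)) :=
      Submodule.subset_span (by simp)
    have mn2 : n2 ∈ Submodule.span F ({v, n2} ∪ {w', n1} : Set (ι → F)) :=
      Submodule.subset_span (by simp)
    have mw' : w' ∈ Submodule.span F ({v, n2} ∪ {w', n1} : Set (ι → F)) :=
      Submodule.subset_span (by simp)
    have mn1 : n1 ∈ Submodule.span F ({v, n2} ∪ {w', n1} : Set (ι → F)) :=
      Submodule.subset_span (by simp)
    simp only [Set.mem_union, Set.mem_insert_iff, Set.mem_singleton_iff] at hz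
    rcases hz with (h | h) | (h | h)
    · rw [h, xv]
      exact Submodule.add_mem _ mv mn1
    · rw [h, xn2]
      exact mn2
    · rw [h, xw']
      exact Submodule.add_mem _ mw' mn2
    · rw [h, xn1]
      exact mn1

theorem pkgNecCrit_of (hAB : PkgAB.{u}) (hPerp : PkgPerp.{u}) : PkgNecCrit.{u} := by
  intro F _ _ ι _ _ Q x hS hA hfix
  have hQ := hS.nondeg
  have key : ∀ n : ℕ, ∀ W : Submodule F (ι → F), Module.finrank F W = n → Inv x W → Nd Q W →
      n % 4 = 0 := by
    intro n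
    induction n using Nat.strong_induction_on with
    | _ n ih =>
      intro W hn hI hN
      by_cases hWf : W ≤ fixSp x
      · have hW : W = ⊥ := by
          rw [eq_bot_iff]
          intro w hw
          rw [Submodule.mem_bot]
          by_contra hw0
          obtain ⟨y, hy, hy0⟩ := nd_right hN hw hw0
          apply hy0
          unfold QuadraticMap.polar
          rw [hfix _ (fixSp_mem.1 (hWf (W.add_mem hw hy))), hfix _ (fixSp_mem.1 (hWf hw)),
            hfix _ (fixSp_mem.1 (hWf hy))]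
          ring
        rw [hW, finrank_bot] at hn
        rw [← hn]
      · obtain ⟨D, hDW, hDI, hDN, -, hDf⟩ :=
          hAB F ι Q x hS W hI hN (fun v _ => hA v Submodule.mem_top) hWf
        obtain ⟨W', hW'W, hW'I, hW'N, -, -, hf⟩ :=
          hPerp F ι Q hQ x hS.isom hS.det W D hDW hI hDI hN hDN
        have h4 := ih (Module.finrank F W') (by omega) W' rfl hW'I hW'N
        omega
  intro W hI hN
  exact key _ W rfl hI hN

theorem pkgNecCrit : PkgNecCrit.{u} :=
  pkgNecCrit_of pkgAB Cfsg.Agent.Lib.Helper87.OHyp.pkgPerp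

end ab

end Cfsg.Agent.Lib.Helper12.PHyp
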