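-- Team project PHYP (S5974), regime [T2E]: the bridge to helper63's interface Prop `PkgT2E`.
import Mathlib
import Cfsg.Agent.Lib.Helper63.PHyp.Defs
import Cfsg.Agent.Lib.Helper12.PHyp.T2EBasic

set_option autoImplicit false
set_option linter.unusedSectionVars false
open scoped MatrixGroups
open Matrix

namespace Cfsg.Agent.Lib.Helper12.PHyp

open Cfsg.Agent.Lib.Helper23.OHyp

universe u

theorem pkgT2E_of (hSuf : PkgT2ESuf.{u}) (hNec : PkgT2ENec.{u}) :
    Cfsg.Agent.Lib.Helper63.PHyp.PkgT2E.{u} := by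
  intro F _ _ d m h2 hd hm hme hmd
  have hQ := Cfsg.Agent.Lib.Helper12.OHyp.nondeg_quadFormPlus (F := F) d
  have h11 : (1 : F) + 1 = 0 := by rw [one_add_one_eq_two, h2]
  have hz1 : ∀ z : F, z * z = 1 → z = 1 := by
    intro z hz
    have h : (z + 1) * (z + 1) = 0 := by
      have e : (z + 1) * (z + 1) = z * z + 2 * z + 1 := by ring
      rw [e, hz, h2, zero_mul, add_zero, h11]
    have h' : z + 1 = 0 := by
      rcases mul_eq_zero.1 h with h | h <;> exact h
    have e2 : z = -1 := eq_neg_of_add_eq_zero_left h'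
    rw [e2]
    exact neg_eq_of_add_eq_zero_left h11
  constructor
  · intro hall
    by_contra hcon
    obtain ⟨hd2, hm4⟩ := not_or.1 hcon
    have hde : Even d := by
      rcases Nat.even_or_odd d with h | ⟨k, hk⟩
      · exact h
      · omega
    obtain ⟨x, hxΩ, hx2, hx1, hW⟩ := hNec F h2 d hd hde
    have hns : ∀ z : F, (x : Matrix (Fin d ⊕ Fin d) (Fin d ⊕ Fin d) F) ≠
        z • (1 : Matrix (Fin d ⊕ Fin d) (Fin d ⊕ Fin d) F) := by
      intro z hz
      have hzz : z * z = 1 := by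
        have h := congrArg
          (fun g : GL (Fin d ⊕ Fin d) F => (g : Matrix (Fin d ⊕ Fin d) (Fin d ⊕ Fin d) F)) hx2
        simp only [Units.val_pow_eq_pow_val, Units.val_one] at h
        rw [hz, pow_two, Matrix.smul_mul, Matrix.one_mul, smul_smul] at h
        have h00 := congrFun (congrFun h (Sum.inl ⟨0, by omega⟩)) (Sum.inl ⟨0, by omega⟩)
        simpa using h00
      rw [hz1 z hzz, one_smul] at hz
      exact hx1 (Units.ext hz)
    obtain ⟨W, ⟨hf, hnd, -⟩, hinv⟩ := hall x hxΩ ⟨1, by rw [hx2, one_smul]; rfl⟩ hns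
    have h4 := hW W hinv (nd_of_right hnd)
    omega
  · intro hdm x hxΩ hzex hns
    obtain ⟨z, hz⟩ := hzex
    have hiso : ∀ v, Cfsg.quadFormPlus d F
        ((x : Matrix (Fin d ⊕ Fin d) (Fin d ⊕ Fin d) F) *ᵥ v) = Cfsg.quadFormPlus d F v := by
      obtain ⟨g, -, rfl⟩ := hxΩ
      intro v
      exact g.2 v v
    have hpow : (x : Matrix (Fin d ⊕ Fin d) (Fin d ⊕ Fin d) F) *
        (x : Matrix (Fin d ⊕ Fin d) (Fin d ⊕ Fin d) F) =
        z • (1 : Matrix (Fin d ⊕ Fin d) (Fin d ⊕ Fin d) F) := by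
      rw [← hz, Units.val_pow_eq_pow_val, pow_two]
    have hzz : z * z = 1 := by
      let i₀ : Fin d := ⟨0, by omega⟩
      let v₀ : Fin d ⊕ Fin d → F :=
        Sum.elim (fun i => if i = i₀ then 1 else 0) (fun i => if i = i₀ then 1 else 0)
      have hv₀ : Cfsg.quadFormPlus d F v₀ = 1 := by
        have hterm : ∀ i : Fin d, (if i = i₀ then (1 : F) else 0) *
            (if i = i₀ then (1 : F) else 0) = if i = i₀ then 1 else 0 := by
          intro i
          split_ifs <;> simp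
        simp [Cfsg.quadFormPlus, v₀, hterm]
      have h1 : Cfsg.quadFormPlus d F ((x : Matrix (Fin d ⊕ Fin d) (Fin d ⊕ Fin d) F) *ᵥ
          ((x : Matrix (Fin d ⊕ Fin d) (Fin d ⊕ Fin d) F) *ᵥ v₀)) = Cfsg.quadFormPlus d F v₀ := by
        rw [hiso, hiso]
      rw [Matrix.mulVec_mulVec, hpow, Matrix.smul_mulVec, Matrix.one_mulVec, hQ.smul, hv₀,
        mul_one, pow_two] at h1
      exact h1
    have hx2 : (x : Matrix (Fin d ⊕ Fin d) (Fin d ⊕ Fin d) F) *
        (x : Matrix (Fin d ⊕ Fin d) (Fin d ⊕ Fin d) F) = 1 := by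
      rw [hpow, hz1 z hzz, one_smul]
    have hdm' : Odd d ∨ m % 4 = 0 := by
      rcases hdm with h | h
      · left
        rcases Nat.even_or_odd d with ⟨k, hk⟩ | h'
        · omega
        · exact h'
      · right
        exact h
    obtain ⟨W, hf, hN, hP, hI⟩ := hSuf F h2 d m hd hme hmd hdm' _ hx2 hiso
    obtain ⟨U, hU, hts, hfU⟩ := hP
    exact ⟨W, ⟨hf, fun u hu hu0 => nd_right hN hu hu0, U, hU, by rw [hfU, hf], hts⟩, hI⟩

end Cfsg.Agent.Lib.Helper12.PHyp
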