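-- Team project PHYP (S5974), regime [T2E]: package [RP].
import Mathlib
import Cfsg.Agent.Lib.Helper94.Refl
import Cfsg.Agent.Lib.Helper87.OHyp.Perp
import Cfsg.Agent.Lib.Helper12.PHyp.T2EAB

set_option autoImplicit false
set_option linter.unusedSectionVars false
open scoped MatrixGroups
open Matrix

namespace Cfsg.Agent.Lib.Helper12.PHyp

open Cfsg.Agent.Lib.Helper23.OHyp
open Cfsg.Agent.Lib.Helper94

universe u

theorem pkgRP : PkgRP.{u} := by
  intro F _ _ ι _ _ Q x hS V hI hN h6 hnA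
  have hQ := hS.nondeg
  obtain ⟨v, hvV, hv⟩ : ∃ v ∈ V, QuadraticMap.polar Q v (x *ᵥ v) ≠ 0 := by
    by_contra hcon
    apply hnA
    intro v hv
    by_contra h
    exact hcon ⟨v, hv, h⟩
  obtain ⟨z, hz⟩ : ∃ z, z = x *ᵥ v + v := ⟨_, rfl⟩
  have hzV : z ∈ V := by
    rw [hz]
    exact V.add_mem (inv_mulVec_mem hI hvV) hvV
  have xz : x *ᵥ z = z := by
    rw [hz]
    exact hS.xn v
  have xv : x *ᵥ v = v + z := by
    rw [hz]
    exact hS.x_eq v
  have p_v_z : QuadraticMap.polar Q v z ≠ 0 := by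
    rw [hz, padd_right hQ, hS.pself, add_zero]
    exact hv
  have hP0 := plane_nd hQ v z (hS.pself v) (hS.pself z) p_v_z
  have mv : v ∈ Submodule.span F ({v, z} : Set (ι → F)) := Submodule.subset_span (by simp)
  have mz : z ∈ Submodule.span F ({v, z} : Set (ι → F)) := Submodule.subset_span (by simp)
  have hP0V : Submodule.span F {v, z} ≤ V := by
    rw [Submodule.span_le]
    intro y hy
    simp only [Set.mem_insert_iff, Set.mem_singleton_iff] at hy
    rcases hy with h | h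
    · rw [h]
      exact hvV
    · rw [h]
      exact hzV
  have hP0I : Inv x (Submodule.span F {v, z}) := by
    show Submodule.map (Matrix.toLin' x) _ ≤ _
    rw [Submodule.map_span_le]
    intro y hy
    rw [Matrix.toLin'_apply]
    simp only [Set.mem_insert_iff, Set.mem_singleton_iff] at hy
    rcases hy with h | h
    · rw [h, xv]
      exact Submodule.add_mem _ mv mz
    · rw [h, xz]
      exact mz
  obtain ⟨V1, hV1V, hV1I, hV1N, hPerp, -, hf⟩ :=
    Cfsg.Agent.Lib.Helper87.OHyp.pkgPerp F ι Q hQ x hS.isom hS.det V _ hP0V hI hP0I hN hP0.1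
  have hV1f : 4 ≤ Module.finrank F V1 := by
    rw [hP0.2] at hf
    omega
  obtain ⟨u0, hu0V, hu0φ, hu0Q⟩ :
      ∃ u0 ∈ V1, QuadraticMap.polar Q u0 (x *ᵥ u0) = 0 ∧ Q u0 ≠ 0 := by
    by_cases hA1 : ∃ u ∈ V1, QuadraticMap.polar Q u (x *ᵥ u) ≠ 0
    · obtain ⟨u, huV, hu⟩ := hA1
      refine ⟨x *ᵥ u + u, V1.add_mem (inv_mulVec_mem hV1I huV) huV, ?_, ?_⟩
      · rw [hS.xn]
        exact hS.pself _
      · rw [hS.qn]
        exact hu
    · have hA1' : ∀ u ∈ V1, QuadraticMap.polar Q u (x *ᵥ u) = 0 := by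
        intro u hu
        by_contra h
        exact hA1 ⟨u, hu, h⟩
      have hne : V1 ≠ ⊥ := by
        rintro rfl
        rw [finrank_bot] at hV1f
        omega
      obtain ⟨w, hwV, hw0⟩ := Submodule.exists_mem_ne_zero_of_ne_bot hne
      obtain ⟨y, hyV, hy⟩ := nd_right hV1N hwV hw0
      by_cases h1 : Q w = 0
      · by_cases h2 : Q y = 0
        · refine ⟨w + y, V1.add_mem hwV hyV, hA1' _ (V1.add_mem hwV hyV), ?_⟩
          intro h3
          apply hy
          unfold QuadraticMap.polar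
          rw [h3, h1, h2]
          ring
        · exact ⟨y, hyV, hA1' y hyV, h2⟩
      · exact ⟨w, hwV, hA1' w hwV, h1⟩
  have hchar : CharP F 2 := CharTwo.of_one_ne_zero_of_two_eq_zero one_ne_zero hS.two
  obtain ⟨a, ha⟩ := FiniteField.isSquare_of_char_two (ringChar.eq F 2) (Q v / Q u0)
  obtain ⟨u, hu⟩ : ∃ u, u = a • u0 := ⟨_, rfl⟩
  have huV : u ∈ V1 := by
    rw [hu]
    exact V1.smul_mem _ hu0V
  have huQ : Q u = Q v := by
    rw [hu, hQ.smul, pow_two, ← ha]
    field_simp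
  have huφ : QuadraticMap.polar Q u (x *ᵥ u) = 0 := by
    rw [hu, Matrix.mulVec_smul, psmul_left hQ, psmul_right hQ, hu0φ]
    ring
  obtain ⟨v', hv'⟩ : ∃ v', v' = v + u := ⟨_, rfl⟩
  have p_v_u : QuadraticMap.polar Q v u = 0 := hPerp v mv u huV
  have p_v_xu : QuadraticMap.polar Q v (x *ᵥ u) = 0 := hPerp v mv _ (inv_mulVec_mem hV1I huV)
  have p_u_xv : QuadraticMap.polar Q u (x *ᵥ v) = 0 := by
    rw [QuadraticMap.polar_comm]
    exact hPerp _ (inv_mulVec_mem hP0I mv) u huV
  have hv'Q : Q v' = 0 := by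
    rw [hv', Q_add (Q := Q), huQ]
    show Q v + Q v + QuadraticMap.polar Q v u = 0
    rw [p_v_u, hS.add_self, add_zero]
  have hv'φ : QuadraticMap.polar Q v' (x *ᵥ v') ≠ 0 := by
    rw [hv', Matrix.mulVec_add, padd_left hQ, padd_right hQ, padd_right hQ, p_v_xu, p_u_xv, huφ]
    simp only [add_zero]
    exact hv
  have hv'V : v' ∈ V := by
    rw [hv']
    exact V.add_mem hvV (hV1V huV)
  obtain ⟨z', hz'⟩ : ∃ z', z' = x *ᵥ v' + v' := ⟨_, rfl⟩
  have hz'V : z' ∈ V := by
    rw [hz']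
    exact V.add_mem (inv_mulVec_mem hI hv'V) hv'V
  have xz' : x *ᵥ z' = z' := by
    rw [hz']
    exact hS.xn v'
  have xv' : x *ᵥ v' = v' + z' := by
    rw [hz']
    exact hS.x_eq v'
  have p_z'_v' : QuadraticMap.polar Q z' v' ≠ 0 := by
    rw [QuadraticMap.polar_comm, hz', padd_right hQ, hS.pself, add_zero]
    exact hv'φ
  have hP := plane_nd hQ z' v' (hS.pself z') (hS.pself v') p_z'_v'
  have hPp := plane_plus hQ z' v' (hS.pself z') (hS.pself v') p_z'_v' hv'Q
  have mv' : v' ∈ Submodule.span F ({z', v'} : Set (ι → F)) := Submodule.subset_span (by simp)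
  have mz' : z' ∈ Submodule.span F ({z', v'} : Set (ι → F)) := Submodule.subset_span (by simp)
  refine ⟨Submodule.span F {z', v'}, ?_, ?_, hP.1, hPp, hP.2⟩
  · rw [Submodule.span_le]
    intro y hy
    simp only [Set.mem_insert_iff, Set.mem_singleton_iff] at hy
    rcases hy with h | h
    · rw [h]
      exact hz'V
    · rw [h]
      exact hv'V
  · show Submodule.map (Matrix.toLin' x) _ ≤ _
    rw [Submodule.map_span_le]
    intro y hy
    rw [Matrix.toLin'_apply]
    simp only [Set.mem_insert_iff, Set.mem_singleton_iff] at hy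
    rcases hy with h | h
    · rw [h, xz']
      exact mz'
    · rw [h, xv']
      exact Submodule.add_mem _ mv' mz'

end Cfsg.Agent.Lib.Helper12.PHyp
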