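-- Team project PHYP (S5974), regime [T2E] (r = 2 = p, q even): the final assembly.
import Mathlib
import Cfsg.Agent.Lib.Helper12.PHyp.T2EMain
import Cfsg.Agent.Lib.Helper12.PHyp.T2EAB
import Cfsg.Agent.Lib.Helper12.PHyp.T2ERP
import Cfsg.Agent.Lib.Helper20.PHyp.PlusTop
import Cfsg.Agent.Lib.Helper20.PHyp.NdEven
import Cfsg.Agent.Lib.Helper20.PHyp.Geom2
import Cfsg.Agent.Lib.Helper29.PHyp.NecElt
import Cfsg.Agent.Lib.Helper65.PHyp.ADec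
import Cfsg.Agent.Lib.Helper65.PHyp.Peel
import Cfsg.Agent.Lib.Helper65.PHyp.ASolve
import Cfsg.Agent.Lib.Helper63.PHyp.TSMax
import Cfsg.Agent.Lib.Helper87.OHyp.Perp

set_option autoImplicit false

namespace Cfsg.Agent.Lib.Helper12.PHyp

universe u

theorem pkgADec : PkgADec.{u} :=
  Cfsg.Agent.Lib.Helper65.PHyp.pkgADec_of pkgAB Cfsg.Agent.Lib.Helper87.OHyp.pkgPerp pkgSumPlus

theorem pkgASolve : PkgASolve.{u} :=
  Cfsg.Agent.Lib.Helper65.PHyp.pkgASolve_of pkgADec Cfsg.Agent.Lib.Helper20.PHyp.pkgGeom2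
    pkgSumPlus Cfsg.Agent.Lib.Helper20.PHyp.pkgNdEven

theorem pkgPeel : PkgPeel.{u} :=
  Cfsg.Agent.Lib.Helper65.PHyp.pkgPeel_of pkgRP Cfsg.Agent.Lib.Helper87.OHyp.pkgPerp pkgSumPlus
    pkgASolve

theorem pkgT2ESuf : PkgT2ESuf.{u} :=
  pkgT2ESuf_of pkgPeel pkgASolve Cfsg.Agent.Lib.Helper63.PHyp.pkgTSMax
    Cfsg.Agent.Lib.Helper20.PHyp.pkgPlusTop

theorem pkgT2ENec : PkgT2ENec.{u} :=
  pkgT2ENec_of Cfsg.Agent.Lib.Helper29.PHyp.pkgNecElt pkgNecCrit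

/-- Regime [T2E] of S5974, in helper63's interface shape. -/
theorem pkgT2E : Cfsg.Agent.Lib.Helper63.PHyp.PkgT2E.{u} :=
  pkgT2E_of pkgT2ESuf pkgT2ENec

end Cfsg.Agent.Lib.Helper12.PHyp
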